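import Cfsg.Agent.Lib.J2C.Refl

/-!
# The centre of the icosian reflection group
-/

set_option autoImplicit false

noncomputable section

namespace Cfsg.Agent.Lib.J2C

open Cfsg Cfsg.Spor Quaternion Cfsg.Agent.Lib.KnownSimple.J2B Cfsg.Agent.Lib.Compute

/-- The elements of the group preserve the product. -/
theorem isom (g : twoJ2) (x y : icoLeech) :
    qip ((g.1 x : icoLeech) : V) ((g.1 y : icoLeech) : V) = qip (x : V) (y : V) := by
  obtain ⟨g, hg⟩ := g
  induction hg using Subgroup.closure_induction generalizing x y with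
  | mem f hf =>
    obtain ⟨r, hr, h⟩ := hf
    show qip ((f x : icoLeech) : V) ((f y : icoLeech) : V) = _
    rw [h x, h y, qip_refl_adj, qrefl_invol hr]
  | one => rfl
  | mul a b _ _ ha hb =>
    show qip ((a (b x) : icoLeech) : V) ((a (b y) : icoLeech) : V) = _
    rw [ha (b x) (b y), hb x y]
  | inv a _ ha =>
    show qip ((a⁻¹ x : icoLeech) : V) ((a⁻¹ y : icoLeech) : V) = _
    rw [← ha (a⁻¹ x) (a⁻¹ y)]
    simp

/-- The lines of the three coordinates. -/
def idx : Fin 3 → Fin 315 := ![⟨149, by norm_num⟩, ⟨290, by norm_num⟩, ⟨282, by norm_num⟩]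

theorem rep149 : rep 149 = (negQ twoQ, zeroQ, zeroQ) := by decide +kernel
theorem rep290 : rep 290 = (zeroQ, negQ twoQ, zeroQ) := by decide +kernel
theorem rep282 : rep 282 = (zeroQ, zeroQ, negQ twoQ) := by decide +kernel

theorem toH_m2 : toH (negQ twoQ) = ((-2 : ℝ) : ℍ[ℝ]) := by
  ext <;> simp [toH, negQ, twoQ, rr] <;> norm_num

theorem rv_apply (l : Fin 315) : D.rv l = vecOf (rep l.val) := rfl

/-- The vectors of the coordinates. -/
theorem qip_e (z : V) (t : Fin 3) : qip z (D.rv (idx t)) = (-2 : ℝ) • z t := by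
  unfold qip
  rw [Fin.sum_univ_three]
  fin_cases t
  · show z 0 * star (vecOf (rep 149) 0) + z 1 * star (vecOf (rep 149) 1) + z 2 * star (vecOf (rep 149) 2) = (-2 : ℝ) • z 0
    rw [rep149]
    simp only [vecOf_0, vecOf_1, vecOf_2, toH_m2, toH_zero, star_zero, mul_zero, add_zero, Quaternion.star_coe]
    rw [Quaternion.mul_coe_eq_smul]
  · show z 0 * star (vecOf (rep 290) 0) + z 1 * star (vecOf (rep 290) 1) + z 2 * star (vecOf (rep 290) 2) = (-2 : ℝ) • z 1
    rw [rep290]
    simp only [vecOf_0, vecOf_1, vecOf_2, toH_m2, toH_zero, star_zero, mul_zero, add_zero, zero_add, Quaternion.star_coe]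
    rw [Quaternion.mul_coe_eq_smul]
  · show z 0 * star (vecOf (rep 282) 0) + z 1 * star (vecOf (rep 282) 1) + z 2 * star (vecOf (rep 282) 2) = (-2 : ℝ) • z 2
    rw [rep282]
    simp only [vecOf_0, vecOf_1, vecOf_2, toH_m2, toH_zero, star_zero, mul_zero, add_zero, zero_add, Quaternion.star_coe]
    rw [Quaternion.mul_coe_eq_smul]

theorem sep (z : V) (h : ∀ t : Fin 3, qip z (D.rv (idx t)) = 0) : z = 0 := by
  funext t
  have h1 := h t
  rw [qip_e] at h1
  have h2 : (-2 : ℝ) ≠ 0 := by norm_num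
  simpa [h2] using h1

theorem qip_zero_left (w : V) : qip (0 : V) w = 0 := by
  unfold qip
  simp

/-- The elements of the group commute with the negative. -/
theorem isom_neg (g : twoJ2) (x x' : icoLeech) (h : (x' : V) = - (x : V)) :
    ((g.1 x' : icoLeech) : V) = - ((g.1 x : icoLeech) : V) := by
  have key : ((g.1 x' : icoLeech) : V) + ((g.1 x : icoLeech) : V) = 0 := by
    apply sep
    intro t
    have h1 := isom g x' (g.1⁻¹ ⟨D.rv (idx t), D.hL _⟩)
    have h2 := isom g x (g.1⁻¹ ⟨D.rv (idx t), D.hL _⟩)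
    have hw : g.1 (g.1⁻¹ ⟨D.rv (idx t), D.hL _⟩) = ⟨D.rv (idx t), D.hL _⟩ := by simp
    rw [hw] at h1 h2
    rw [qip_add_left, h1, h2, ← qip_add_left, h, neg_add_cancel, qip_zero_left]
  exact eq_neg_of_add_eq_zero_left key

theorem unit_of_mul {u : ℍ[ℝ]} (h : u * star u = 1) : star u * u = 1 := by
  rw [Quaternion.star_mul_self, ← Quaternion.self_mul_star, h]

theorem unit_of_qip {u : ℍ[ℝ]} {r : V} (hr : qip r r = 4) (h : qip (lsm u r) (lsm u r) = 4) : star u * u = 1 := by
  rw [qip_lsm, qip_lsm_right, hr] at h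
  have h9 : (4 : ℝ) • (u * star u) = (4 : ℝ) • (1 : ℍ[ℝ]) := by
    rw [← four_eq, ← h, four_eq, smul_mul_assoc, one_mul, mul_smul_comm]
  exact unit_of_mul (smul_right_injective _ (by norm_num : (4 : ℝ) ≠ 0) h9)

/-- A central element acts on a line by a scalar. -/
theorem center_line (g : twoJ2) (hg : g ∈ Subgroup.center twoJ2) (l : Fin 315) :
    ∃ u : ℍ[ℝ], star u * u = 1 ∧ ((g.1 ⟨D.rv l, D.hL l⟩ : icoLeech) : V) = lsm u (D.rv l) := by
  set r : icoLeech := ⟨D.rv l, D.hL l⟩ with hr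
  set y : V := ((g.1 r : icoLeech) : V) with hy
  have hc : D.t l * g = g * D.t l := (Subgroup.mem_center_iff.1 hg) (D.t l)
  have h1 : qrefl (D.rv l) y = - y := by
    have h2 := congrArg (fun a : twoJ2 => (((a.1 r : icoLeech)) : V)) hc
    have h3 : qrefl (D.rv l) y = ((g.1 ((D.t l).1 r) : icoLeech) : V) := h2
    rw [h3]
    apply isom_neg
    show qrefl (D.rv l) (D.rv l) = - D.rv l
    exact qrefl_self (D.hn l)
  set c : ℍ[ℝ] := (1 / 2 : ℝ) • qip y (D.rv l) with hc'
  have h4 : y = lsm ((1 / 2 : ℝ) • c) (D.rv l) := by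
    rw [qrefl_eq] at h1
    funext t
    have h5 := congrFun h1 t
    simp only [Pi.sub_apply, Pi.neg_apply, lsm] at h5
    simp only [lsm, smul_mul_assoc]
    have h6 : y t + y t = c * D.rv l t := by
      have := h5
      rw [sub_eq_iff_eq_add] at this
      have h7 : y t = - y t + c * D.rv l t := this
      calc y t + y t = (- y t + c * D.rv l t) + y t := by rw [← h7]
        _ = c * D.rv l t := by abel
    rw [← h6, smul_add, ← add_smul]
    norm_num
  refine ⟨(1 / 2 : ℝ) • c, ?_, h4⟩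
  have h8 : qip y y = 4 := by
    have := isom g r r
    rw [this]
    exact D.hn l
  rw [h4] at h8
  exact unit_of_qip (D.hn l) h8

/-- The action of a central element on the coordinates. -/
theorem center_coord (g : twoJ2) (hg : g ∈ Subgroup.center twoJ2) :
    ∃ U : Fin 3 → ℍ[ℝ], (∀ t, star (U t) * U t = 1) ∧ ∀ (x : icoLeech) (t : Fin 3),
      ((g.1 x : icoLeech) : V) t = (x : V) t * U t := by
  choose U hU1 hU2 using fun t => center_line g hg (idx t)
  refine ⟨U, hU1, fun x t => ?_⟩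
  have h1 := isom g x ⟨D.rv (idx t), D.hL _⟩
  rw [hU2 t, qip_lsm_right, qip_e, qip_e] at h1
  rw [smul_mul_assoc] at h1
  have h2 : ((g.1 x : icoLeech) : V) t * star (U t) = (x : V) t :=
    smul_right_injective _ (by norm_num : (-2 : ℝ) ≠ 0) h1
  calc ((g.1 x : icoLeech) : V) t = ((g.1 x : icoLeech) : V) t * (star (U t) * U t) := by rw [hU1 t, mul_one]
    _ = (x : V) t * U t := by rw [← mul_assoc, h2]

/-- The unit `j`. -/
def qj : ℍ[ℝ] := ⟨0, 0, 1, 0⟩
/-- The unit `k`. -/
def qk : ℍ[ℝ] := ⟨0, 0, 0, 1⟩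

theorem toH_j : toH ⟨0, 0, 0, 0, 4, 0, 0, 0⟩ = qj := by
  ext <;> simp [toH, rr, qj]

theorem toH_k : toH ⟨0, 0, 0, 0, 0, 0, 4, 0⟩ = qk := by
  ext <;> simp [toH, rr, qk]

theorem toH_m1 : toH (negQ oneQ) = -1 := by
  rw [toH_neg, toH_one]

theorem rep19a : (rep 19).1 = negQ oneQ := by decide +kernel
theorem rep19b : (rep 19).2.1 = negQ oneQ := by decide +kernel
theorem rep14a : (rep 14).1 = negQ oneQ := by decide +kernel
theorem rep14c : (rep 14).2.2 = negQ oneQ := by decide +kernel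
theorem rep13a : (rep 13).1 = negQ oneQ := by decide +kernel
theorem rep13c : (rep 13).2.2 = ⟨0, 0, 0, 0, 4, 0, 0, 0⟩ := by decide +kernel
theorem rep4a : (rep 4).1 = negQ oneQ := by decide +kernel
theorem rep4b : (rep 4).2.1 = ⟨0, 0, 0, 0, 0, 0, 4, 0⟩ := by decide +kernel

/-- A unit commuting with `j`, `k` is `±1`. -/
theorem real_of_comm {U : ℍ[ℝ]} (hU : star U * U = 1) (h1 : qj * U = U * qj) (h2 : qk * U = U * qk) : U = 1 ∨ U = -1 := by
  have a1 : (qj * U).imI = (U * qj).imI := congrArg (fun q : ℍ[ℝ] => q.imI) h1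
  have a2 : (qj * U).imK = (U * qj).imK := congrArg (fun q : ℍ[ℝ] => q.imK) h1
  have a3 : (qk * U).imI = (U * qk).imI := congrArg (fun q : ℍ[ℝ] => q.imI) h2
  have a4 : (star U * U).re = (1 : ℍ[ℝ]).re := congrArg (fun q : ℍ[ℝ] => q.re) hU
  rw [Quaternion.imI_mul, Quaternion.imI_mul] at a1 a3
  rw [Quaternion.imK_mul, Quaternion.imK_mul] at a2
  rw [Quaternion.re_mul, Quaternion.re_star, Quaternion.imI_star, Quaternion.imJ_star, Quaternion.imK_star, Quaternion.re_one] at a4
  simp only [qj, qk] at a1 a2 a3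
  have b1 : U.imK = 0 := by linarith
  have b2 : U.imI = 0 := by linarith
  have b3 : U.imJ = 0 := by linarith
  have b4 : U.re * U.re = 1 := by
    rw [b1, b2, b3] at a4
    linarith
  have b5 : (U.re - 1) * (U.re + 1) = 0 := by ring_nf; linarith
  rcases mul_eq_zero.1 b5 with h | h
  · left
    ext <;> simp [b1, b2, b3]
    linarith
  · right
    ext <;> simp [b1, b2, b3]
    linarith

theorem center_sign (g : twoJ2) (hg : g ∈ Subgroup.center twoJ2) :
    (∀ x : icoLeech, ((g.1 x : icoLeech) : V) = x) ∨ (∀ x : icoLeech, ((g.1 x : icoLeech) : V) = - (x : V)) := by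
  obtain ⟨U, hU, hc⟩ := center_coord g hg
  -- the vector equations on four lines
  have line : ∀ (l : Fin 315) , ∃ v : ℍ[ℝ], ∀ t, D.rv l t * U t = v * D.rv l t := by
    intro l
    obtain ⟨v, -, hv⟩ := center_line g hg l
    refine ⟨v, fun t => ?_⟩
    have h1 := hc ⟨D.rv l, D.hL l⟩ t
    rw [hv] at h1
    exact h1.symm
  obtain ⟨v19, h19⟩ := line ⟨19, by norm_num⟩
  obtain ⟨v14, h14⟩ := line ⟨14, by norm_num⟩
  obtain ⟨v13, h13⟩ := line ⟨13, by norm_num⟩
  obtain ⟨v4, h4⟩ := line ⟨4, by norm_num⟩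
  have a19 := h19 0
  have b19 := h19 1
  have a14 := h14 0
  have c14 := h14 2
  have a13 := h13 0
  have c13 := h13 2
  have a4 := h4 0
  have b4 := h4 1
  simp only [rv_apply, vecOf_0, vecOf_1, vecOf_2] at a19 b19 a14 c14 a13 c13 a4 b4
  rw [rep19a, toH_m1] at a19
  rw [rep19b, toH_m1] at b19
  rw [rep14a, toH_m1] at a14
  rw [rep14c, toH_m1] at c14
  rw [rep13a, toH_m1] at a13
  rw [rep13c, toH_j] at c13
  rw [rep4a, toH_m1] at a4
  rw [rep4b, toH_k] at b4
  simp only [neg_mul, mul_neg, one_mul, mul_one, neg_inj] at a19 b19 a14 c14 a13 a4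
  have e1 : U 1 = U 0 := by rw [b19, a19]
  have e2 : U 2 = U 0 := by rw [c14, a14]
  rw [← a13, e2] at c13
  rw [← a4, e1] at b4
  rcases real_of_comm (hU 0) c13 b4 with h | h
  · left
    intro x
    funext t
    rw [hc]
    fin_cases t
    · show (x : V) 0 * U 0 = (x : V) 0
      rw [h, mul_one]
    · show (x : V) 1 * U 1 = (x : V) 1
      rw [e1, h, mul_one]
    · show (x : V) 2 * U 2 = (x : V) 2
      rw [e2, h, mul_one]
  · right
    intro x
    funext t
    rw [hc]
    fin_cases t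
    · show (x : V) 0 * U 0 = - (x : V) 0
      rw [h, mul_neg, mul_one]
    · show (x : V) 1 * U 1 = - (x : V) 1
      rw [e1, h, mul_neg, mul_one]
    · show (x : V) 2 * U 2 = - (x : V) 2
      rw [e2, h, mul_neg, mul_one]

/-- The reflection in the first coordinates: the negative. -/
def zneg : twoJ2 := D.t (idx 0) * D.t (idx 1) * D.t (idx 2)

theorem rv_e (t s : Fin 3) : D.rv (idx t) s = if s = t then ((-2 : ℝ) : ℍ[ℝ]) else 0 := by
  fin_cases t <;> fin_cases s
  · show vecOf (rep 149) 0 = _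
    rw [rep149]; simp [toH_m2]
  · show vecOf (rep 149) 1 = _
    rw [rep149]; simp [toH_zero]
  · show vecOf (rep 149) 2 = _
    rw [rep149]; simp [toH_zero]
  · show vecOf (rep 290) 0 = _
    rw [rep290]; simp [toH_zero]
  · show vecOf (rep 290) 1 = _
    rw [rep290]; simp [toH_m2]
  · show vecOf (rep 290) 2 = _
    rw [rep290]; simp [toH_zero]
  · show vecOf (rep 282) 0 = _
    rw [rep282]; simp [toH_zero]
  · show vecOf (rep 282) 1 = _
    rw [rep282]; simp [toH_zero]
  · show vecOf (rep 282) 2 = _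
    rw [rep282]; simp [toH_m2]

theorem qrefl_e (t : Fin 3) (x : V) (s : Fin 3) : qrefl (D.rv (idx t)) x s = if s = t then - x s else x s := by
  unfold qrefl
  rw [qip_e, rv_e]
  by_cases h : s = t
  · subst h
    rw [if_pos rfl, if_pos rfl, Quaternion.mul_coe_eq_smul, smul_smul, smul_smul]
    norm_num
    rw [two_smul]
    abel
  · rw [if_neg h, if_neg h, mul_zero, sub_zero]

theorem zneg_val (x : icoLeech) : (((zneg : twoJ2).1 x : icoLeech) : V) = - (x : V) := by
  funext s
  show qrefl (D.rv (idx 0)) (qrefl (D.rv (idx 1)) (qrefl (D.rv (idx 2)) (x : V))) s = _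
  rw [qrefl_e, qrefl_e, qrefl_e]
  fin_cases s <;> simp

theorem zneg_center : zneg ∈ Subgroup.center twoJ2 := by
  rw [Subgroup.mem_center_iff]
  intro h
  apply LineData.t_ext
  intro x
  show ((h.1 (zneg.1 x) : icoLeech) : V) = ((zneg.1 (h.1 x) : icoLeech) : V)
  rw [zneg_val, isom_neg h x (zneg.1 x) (zneg_val x)]

theorem zneg_ne : zneg ≠ 1 := by
  intro h
  have h1 := zneg_val ⟨D.rv (idx 0), D.hL _⟩
  rw [h] at h1
  have h2 : D.rv (idx 0) = - D.rv (idx 0) := h1
  have h3 : D.rv (idx 0) = 0 := by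
    funext t
    have h5 := congrFun h2 t
    have h6 : D.rv (idx 0) t + D.rv (idx 0) t = 0 := eq_neg_iff_add_eq_zero.1 h5
    have h7 : (2 : ℝ) • D.rv (idx 0) t = 0 := by rw [two_smul]; exact h6
    simpa using h7
  have h5 := D.hn (idx 0)
  rw [h3] at h5
  unfold qip at h5
  simp only [Pi.zero_apply, star_zero, mul_zero, Finset.sum_const_zero] at h5
  rw [four_eq] at h5
  have h8 := congrArg (fun q : ℍ[ℝ] => q.re) h5
  norm_num at h8

theorem card_center : Nat.card ↥(Subgroup.center ↥twoJ2) = 2 := by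
  rw [Nat.card_eq_two_iff]
  refine ⟨1, ⟨zneg, zneg_center⟩, fun h => zneg_ne (congrArg Subtype.val h).symm, ?_⟩
  ext c
  simp only [Set.mem_insert_iff, Set.mem_singleton_iff, Set.mem_univ, iff_true]
  rcases center_sign c.1 c.2 with h | h
  · left
    apply Subtype.ext
    apply LineData.t_ext
    intro x
    exact h x
  · right
    apply Subtype.ext
    apply LineData.t_ext
    intro x
    rw [h x, zneg_val]

theorem card_J2 : Nat.card J2 = 604800 := by
  rw [Nat.card_congr equivH.toEquiv]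
  exact Cfsg.Agent.Lib.KnownSimple.J2P.card_H

theorem card_twoJ2 : Nat.card ↥twoJ2 = 1209600 := by
  rw [Subgroup.card_eq_card_quotient_mul_card_subgroup (Subgroup.center ↥twoJ2), card_center]
  have : Nat.card (↥twoJ2 ⧸ Subgroup.center ↥twoJ2) = 604800 := card_J2
  rw [this]

end Cfsg.Agent.Lib.J2C
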