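import Cfsg.Agent.Lib.ChevSmall.G2U3
import Cfsg.Agent.Lib.J2C.Simple
import Cfsg.Agent.Lib.KnownSimple.MultM.U33.Nat

/-!
# The presented group of order 6048 is `PSU₃(3)`
-/

set_option autoImplicit false
set_option maxRecDepth 100000

noncomputable section

namespace Cfsg.Agent.Lib.J2C

open Cfsg Cfsg.Agent.Lib.Compute Cfsg.Agent.Lib.PermKit Cfsg.Agent.Lib.KnownSimple.MultC
open Cfsg.Agent.Lib.ChevSmall Cfsg.Agent.Lib.ChevSmall.G2U3 Cfsg.Agent.Lib.KnownSimple.PE
open Equiv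

local notation "PU" => Cfsg.Agent.Lib.KnownSimple.MultM.U33.P
local notation "vU" => Cfsg.Agent.Lib.KnownSimple.MultM.U33.v
local notation "SU'" => Cfsg.Agent.Lib.KnownSimple.MultM.U33.S

/-- The table of a letter on 63 points. -/
def t63 (x : ℕ) : ℕ := lgetD 0 [0x37865cf691dfba7dcec636e13038928201661ef396e0f62d66e348da5675e86535124453edc432ebb011f242f32a229, 0x3207885843cd64dee2be02a37412c2303a815c9763d2ec74c276669b67a4495467e25f98e9bc32f35ab8149ed31ef71, 0x177bc3f48d52c4d7a6a2c5cbaf3000892859d67c3e7241d97d8303b318dfa6e144d14a1edb62dde9a811d9a3692b22c, 0x3ef3d1bae7349a7aae1d52b7c81cfc349459c4a518c201cbf5ca05f640b6d55b1337919b0e0d360126eb7ba263622a1] x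

/-- The letters on 63 points; the letters are involutions. -/
def τ63 (l i : ℕ) : ℕ := pget 6 63 (t63 (l / 2)) i

theorem hC63 : chkCoset τ63 4 63 = true := by decide +kernel

/-- The letters on 63 points. -/
def C63 : Coset 4 63 := mkCoset τ63 hC63

theorem hloop63 : ∀ r ∈ stdRels SU', ∀ i, i < 63 → actW C63.τ r i = i := loops_of_chk (by decide +kernel)

theorem ex63 : ∃ ρ : PU →* Perm (Fin 63), ∀ x, x < 4 → ρ (vU x) = (C63.p x)⁻¹ :=
  exists_rho Cfsg.Agent.Lib.KnownSimple.MultM.U33.hP C63 Cfsg.Agent.Lib.KnownSimple.MultM.U33.hok hloop63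

/-- The representation on 63 points. -/
def ρ63 : PU →* Perm (Fin 63) := ex63.choose

theorem hρ63 : ∀ x, x < 4 → ρ63 (vU x) = (C63.p x)⁻¹ := ex63.choose_spec

/-- The encoding of 63 points. -/
abbrev E63 : Enc (Fin 63) 63 := encF 63

/-- The letters as a family of codes. -/
def gl63 (k : ℕ) : ℕ → ℕ := τ63 (2 * (k % 4) + 1)

theorem gl63_in (k : ℕ) : InK E63 ρ63.range (gl63 k) := by
  have hk : k % 4 < 4 := Nat.mod_lt _ (by norm_num)
  refine ⟨_, ⟨vU (k % 4), rfl⟩, fun a => ?_⟩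
  rw [hρ63 _ hk]
  exact (Coset.pinv_val C63 hk a).symm

/-- The words of the generators of the group on 63 points. -/
def wa63 : List ℕ := [2, 3, 0, 1, 2, 3, 1, 0, 1, 0]
/-- The words of the generators of the group on 63 points. -/
def wb63 : List ℕ := [0]

theorem chk_wa63 : allBelow (fun i => Nat.beq (wordC gl63 wa63 i) (Ta i)) 63 = true := by decide +kernel
theorem chk_wb63 : allBelow (fun i => Nat.beq (wordC gl63 wb63 i) (Tb i)) 63 = true := by decide +kernel

theorem code_ga : E63.IsCode (ρG ga) Ta := by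
  intro a
  show Ta a.val = ((ρG ga a : Fin 63) : ℕ)
  rw [ρG_ga]
  exact (Nat.mod_eq_of_lt (Ta_lt a)).symm

theorem code_gb : E63.IsCode (ρG gb) Tb := by
  intro a
  show Tb a.val = ((ρG gb a : Fin 63) : ℕ)
  rw [ρG_gb]
  exact (Nat.mod_eq_of_lt (Tb_lt a)).symm

theorem ga_range : ρG ga ∈ ρ63.range := by
  obtain ⟨σ, hσ, hc⟩ := InK.word (E := E63) gl63_in wa63
  rw [← eq_of_isCode_all hc code_ga chk_wa63]
  exact hσ

theorem gb_range : ρG gb ∈ ρ63.range := by
  obtain ⟨σ, hσ, hc⟩ := InK.word (E := E63) gl63_in wb63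
  rw [← eq_of_isCode_all hc code_gb chk_wb63]
  exact hσ

theorem equiv_PSU : Nonempty (PU ≃* Cfsg.PSU 3 F9 3) := by
  haveI : Finite PU := Nat.finite_of_card_ne_zero (by
    rw [Cfsg.Agent.Lib.KnownSimple.MultM.U33.card_P]; norm_num)
  haveI : Finite (Cfsg.PSU 3 F9 3) := Nat.finite_of_card_ne_zero (by
    rw [card_PSU]; norm_num)
  refine iso_of_common ρ63 ρP (Subgroup.closure ({ρG ga, ρG gb} : Set (Equiv.Perm (Fin 63)))) ?_ ?_ ?_ ?_
  · rw [Subgroup.closure_le]
    rintro x (rfl | rfl)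
    · exact ga_range
    · exact gb_range
  · rw [Subgroup.closure_le]
    rintro x (rfl | rfl)
    · exact ⟨QuotientGroup.mk uA, by rw [ρP_mk, ρU_uA]⟩
    · exact ⟨QuotientGroup.mk uB, by rw [ρP_mk, ρU_uB]⟩
  · rw [Cfsg.Agent.Lib.KnownSimple.MultM.U33.card_P]
    exact card_A
  · rw [card_PSU]
    exact card_A

end Cfsg.Agent.Lib.J2C
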