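import Cfsg.Agent.Lib.J2C.Orbit
import Cfsg.Agent.Lib.J2C.U33

/-!
# The index 100 subgroup of the Hall-Janko group is the unitary group
-/

set_option autoImplicit false
set_option maxRecDepth 100000

noncomputable section

namespace Cfsg.Agent.Lib.J2C

open Cfsg Cfsg.Spor Cfsg.Agent.Lib.Compute Cfsg.Agent.Lib.PermKit Cfsg.Agent.Lib.KnownSimple.MultC
open Equiv

local notation "PU" => Cfsg.Agent.Lib.KnownSimple.MultM.U33.P
local notation "P" => Cfsg.Agent.Lib.KnownSimple.MultM.J2L.P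
local notation "vP" => Cfsg.Agent.Lib.KnownSimple.MultM.J2L.v
local notation "ρP" => Cfsg.Agent.Lib.KnownSimple.MultM.J2L.ρ
local notation "CP" => Cfsg.Agent.Lib.KnownSimple.MultM.J2L.C
local notation "τP" => Cfsg.Agent.Lib.KnownSimple.MultM.J2L.τ
local notation "h0P" => Cfsg.Agent.Lib.KnownSimple.MultM.J2L.h0
local notation "hρP" => Cfsg.Agent.Lib.KnownSimple.MultM.J2L.hρ

theorem main_U33 : ∃ H : Subgroup J2, H.index = 100 ∧
    (∃ (F : Type) (_ : Field F) (_ : Fintype F), Fintype.card F = 9 ∧ Nonempty (↥H ≃* Cfsg.PSU 3 F 3)) ∧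
    ∃ c₁ c₂ : J2 ⧸ H, (MulAction.orbit ↥H c₁).ncard = 36 ∧ (MulAction.orbit ↥H c₂).ncard = 63 := by
  obtain ⟨e1⟩ := equiv_HJ
  obtain ⟨e2⟩ := equiv_PSU
  obtain ⟨c1, h1⟩ := exists_coset ⟨16, by norm_num⟩ m36 36 (orbit_mask _ _ e36 y36ok inv36 tree36) pop36
  obtain ⟨c2, h2⟩ := exists_coset ⟨1, by norm_num⟩ m63 63 (orbit_mask _ _ e63 y63ok inv63 tree63) pop63
  refine ⟨HJ, ?_, ⟨_, inferInstance, inferInstance, Cfsg.Agent.Lib.ChevSmall.card_F9, ⟨e1.trans e2⟩⟩, c1, c2, h1, h2⟩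
  have h3 := Subgroup.card_mul_index HJ
  rw [Nat.card_congr e1.toEquiv, Cfsg.Agent.Lib.KnownSimple.MultM.U33.card_P, card_J2'] at h3
  omega


end Cfsg.Agent.Lib.J2C
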