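import Cfsg.Agent.Lib.J2C.Simple
import Cfsg.Agent.Lib.KnownSimple.MultM.U33.Nat

/-!
# A subgroup of index 100 of the Hall-Janko group
-/

set_option autoImplicit false
set_option maxRecDepth 100000

noncomputable section

namespace Cfsg.Agent.Lib.J2C

open Cfsg Cfsg.Spor Cfsg.Agent.Lib.Compute Cfsg.Agent.Lib.PermKit Cfsg.Agent.Lib.KnownSimple.MultC
open Equiv

local notation "PU" => Cfsg.Agent.Lib.KnownSimple.MultM.U33.P
local notation "P" => Cfsg.Agent.Lib.KnownSimple.MultM.J2L.P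
local notation "vP" => Cfsg.Agent.Lib.KnownSimple.MultM.J2L.v
local notation "ρP" => Cfsg.Agent.Lib.KnownSimple.MultM.J2L.ρ
local notation "CP" => Cfsg.Agent.Lib.KnownSimple.MultM.J2L.C
local notation "τP" => Cfsg.Agent.Lib.KnownSimple.MultM.J2L.τ
local notation "h0P" => Cfsg.Agent.Lib.KnownSimple.MultM.J2L.h0
local notation "hρP" => Cfsg.Agent.Lib.KnownSimple.MultM.J2L.hρ

/-- A subgroup and the orbits of its action on the cosets. -/
theorem orbit_ncard {G : Type*} [Group G] {n : ℕ} (ρ : G →* Perm (Fin n)) (x0 : Fin n) (H : Subgroup G)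
    (hH : ∀ g, g ∈ H ↔ ρ g x0 = x0) (u : G) :
    (MulAction.orbit ↥H ((u : G) : G ⧸ H)).ncard = (Set.range fun h : H => ρ h.1 (ρ u x0)).ncard := by
  classical
  let F : G ⧸ H → Fin n := fun c => Quotient.liftOn' c (fun g => ρ g x0) (by
    intro a b hab
    have h1 := (hH _).1 (QuotientGroup.leftRel_apply.1 hab)
    rw [map_mul, map_inv, Perm.mul_apply] at h1
    have h2 := congrArg (ρ a) h1
    simpa using h2.symm)
  have hF : ∀ g : G, F (g : G ⧸ H) = ρ g x0 := fun g => rfl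
  have hinj : Function.Injective F := by
    intro a b
    induction a using QuotientGroup.induction_on with
    | H a =>
      induction b using QuotientGroup.induction_on with
      | H b =>
        intro h
        rw [hF, hF] at h
        apply QuotientGroup.eq.2
        rw [hH, map_mul, map_inv, Perm.mul_apply, ← h]
        simp
  rw [← Set.ncard_image_of_injective _ hinj]
  congr 1
  ext z
  constructor
  · rintro ⟨_, ⟨h, rfl⟩, rfl⟩
    refine ⟨h, ?_⟩
    show ρ h.1 (ρ u x0) = F (h • ((u : G) : G ⧸ H))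
    have : h • ((u : G) : G ⧸ H) = ((h.1 * u : G) : G ⧸ H) := rfl
    rw [this, hF, map_mul, Perm.mul_apply]
  · rintro ⟨h, rfl⟩
    refine ⟨_, ⟨h, rfl⟩, ?_⟩
    have : h • ((u : G) : G ⧸ H) = ((h.1 * u : G) : G ⧸ H) := rfl
    show F (h • ((u : G) : G ⧸ H)) = _
    rw [this, hF, map_mul, Perm.mul_apply]

/-- The group of the first letters. -/
abbrev LS' : Subgroup P := Subgroup.closure (vP '' {g | g < 4})

theorem hd4 {x : ℕ} (hx : x < 4) : x < Cfsg.Agent.Lib.KnownSimple.MultM.J2L.d := lt_of_lt_of_le hx (by decide)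

theorem fix_letters : allBelow (fun x => Nat.beq (τP (2 * x + 1) 0) 0) 4 = true := by decide +kernel

theorem letter_fix {x : ℕ} (hx : x < 4) : ρP (vP x) ⟨0, h0P⟩ = ⟨0, h0P⟩ := by
  apply Fin.ext
  rw [hρP x (hd4 hx)]
  rw [Coset.pinv_val CP (hd4 hx)]
  exact Nat.eq_of_beq_eq_true ((allBelow_iff _ _).1 fix_letters x hx)

theorem LS_le : LS' ≤ stabOf ρP h0P := by
  rw [Subgroup.closure_le]
  rintro _ ⟨x, hx, rfl⟩
  exact letter_fix hx

theorem htr' : ∀ i : Fin Cfsg.Agent.Lib.KnownSimple.MultM.J2L.n, ∃ u : P, ρP u ⟨0, h0P⟩ = i := by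
  intro i
  obtain ⟨u, hu⟩ := Cfsg.Agent.Lib.KnownSimple.MultM.J2L.htr i.1 i.2
  exact ⟨u⁻¹, by rw [map_inv]; exact hu⟩

instance : Finite P := Nat.finite_of_card_ne_zero (by rw [Cfsg.Agent.Lib.KnownSimple.MultM.J2L.card_P]; norm_num)

theorem LS_eq : LS' = stabOf ρP h0P := by
  have h2 := card_stabOf ρP h0P htr'
  rw [Cfsg.Agent.Lib.KnownSimple.MultM.J2L.card_P] at h2
  have h3 : Nat.card (stabOf ρP h0P) = 6048 := by
    have : Nat.card (stabOf ρP h0P) * 100 = 6048 * 100 := h2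
    omega
  apply Subgroup.eq_of_le_of_card_ge LS_le
  rw [h3, Cfsg.Agent.Lib.KnownSimple.MultM.J2L.cardLS]

/-- The subgroup of index 100. -/
def HJ : Subgroup J2 := (stabOf ρP h0P).map eJP.symm.toMonoidHom

/-- The action of the group on 100 points. -/
def ρJ : J2 →* Perm (Fin 100) := MonoidHom.comp ρP eJP.toMonoidHom

theorem mem_HJ (g : J2) : g ∈ HJ ↔ ρJ g ⟨0, h0P⟩ = ⟨0, h0P⟩ := by
  rw [HJ, Subgroup.mem_map_equiv]
  rfl

theorem mem_HJ' {g : J2} (h : g ∈ HJ) : eJP g ∈ LS' := by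
  rw [LS_eq]
  exact (mem_HJ g).1 h

theorem equiv_HJ : Nonempty (↥HJ ≃* PU) := by
  have e1 : ↥(stabOf ρP h0P) ≃* ↥HJ := eJP.symm.subgroupMap _
  have e2 : ↥LS' ≃* ↥(stabOf ρP h0P) := MulEquiv.subgroupCongr LS_eq
  have e3 : ↥(Cfsg.Agent.Lib.KnownSimple.MultM.J2L.fU.range) ≃* ↥LS' :=
    MulEquiv.subgroupCongr (range_hom Cfsg.Agent.Lib.KnownSimple.MultM.J2L.hPU Cfsg.Agent.Lib.KnownSimple.MultM.J2L.hfU)
  have e4 : PU ≃* ↥(Cfsg.Agent.Lib.KnownSimple.MultM.J2L.fU.range) :=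
    MonoidHom.ofInjective Cfsg.Agent.Lib.KnownSimple.MultM.J2L.finj
  exact ⟨(e4.trans (e3.trans (e2.trans e1))).symm⟩

instance : Finite J2 := Nat.finite_of_card_ne_zero (by rw [card_J2']; norm_num)

/-- Equality of truth values. -/
def eqB (a b : Bool) : Bool := bcond a b (bcond b false true)

theorem eqB_eq {a b : Bool} (h : eqB a b = true) : a = b := by
  cases a <;> cases b <;> simp_all [eqB]

theorem orbit_mask (Sm : ℕ) (y : Fin 100) (l : List (ℕ × ℕ)) (hy : tb Sm y.val = true)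
    (hinv : allBelow (fun x => allBelow (fun i => eqB (tb Sm (τP (2 * x + 1) i)) (tb Sm i)) 100) 4 = true)
    (htree : treeRun (fun k i => τP (2 * (k % 4) + 1) i) l (Nat.shiftLeft 1 y.val) = Sm) :
    (Set.range fun h : HJ => ρJ h.1 y) = {z : Fin 100 | tb Sm z.val = true} := by
  ext z
  constructor
  · rintro ⟨h, rfl⟩
    have key : ∀ u ∈ LS', ∀ w : Fin 100, tb Sm (ρP u w).val = tb Sm w.val := by
      intro u hu
      induction hu using Subgroup.closure_induction with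
      | mem a ha =>
        obtain ⟨x, hx, rfl⟩ := ha
        intro w
        have hx' : x < 4 := hx
        rw [hρP x (hd4 hx'), Coset.pinv_val CP (hd4 hx')]
        exact eqB_eq ((allBelow_iff _ _).1 ((allBelow_iff _ _).1 hinv x hx') w.val w.2)
      | one => intro w; rw [map_one]; rfl
      | mul a b _ _ ha hb =>
        intro w
        rw [map_mul, Perm.mul_apply, ha, hb]
      | inv a _ ha =>
        intro w
        rw [← ha ((ρP a⁻¹) w), ← Perm.mul_apply, ← map_mul, mul_inv_cancel, map_one]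
        rfl
    show tb Sm ((ρP (eJP h.1)) y).val = true
    rw [key _ (mem_HJ' h.2), hy]
  · intro hz
    have h1 := treeRun_reach (f := fun k i => τP (2 * (k % 4) + 1) i)
      (fun i => ∃ hi : i < 100, ∃ u ∈ LS', ρP u y = ⟨i, hi⟩) ?_ l (Nat.shiftLeft 1 y.val) ?_ z.val (by rw [htree]; exact (tb_eq _ _).symm.trans hz)
    · obtain ⟨_, u, hu, e⟩ := h1
      refine ⟨⟨eJP.symm u, ?_⟩, ?_⟩
      · rw [HJ, Subgroup.mem_map_equiv]
        rw [← LS_eq]
        simpa using hu
      · show ρP (eJP (eJP.symm u)) y = z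
        rw [MulEquiv.apply_symm_apply, e]
    · rintro k i ⟨hi, u, hu, e⟩
      have hk : k % 4 < 4 := Nat.mod_lt _ (by norm_num)
      have hk5 := hd4 hk
      have hlt : τP (2 * (k % 4) + 1) i < 100 := by
        have h5 := Coset.hlt CP (2 * (k % 4) + 1) i (by
          show 2 * (k % 4) + 1 < 2 * 5
          omega) hi
        exact h5
      refine ⟨hlt, vP (k % 4) * u, Subgroup.mul_mem _ (Subgroup.subset_closure ⟨_, hk, rfl⟩) hu, ?_⟩
      rw [map_mul, Perm.mul_apply, e, hρP _ hk5]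
      apply Fin.ext
      rw [Coset.pinv_val CP hk5]
      rfl
    · intro i hi
      have hi' : (1 <<< y.val).testBit i = true := hi
      rw [Nat.one_shiftLeft, Nat.testBit_two_pow] at hi'
      have : y.val = i := by simpa using hi'
      subst this
      exact ⟨y.2, 1, Subgroup.one_mem _, by simp⟩

theorem ncard_mask (Sm : ℕ) : {z : Fin 100 | tb Sm z.val = true}.ncard = Enc.popAux Sm 100 := by
  have h : {z : Fin 100 | tb Sm z.val = true} = ↑((encF 100).finOf Sm) := by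
    ext z
    simp only [Set.mem_setOf_eq, Finset.mem_coe, Enc.mem_finOf]
    rw [tb_eq]
    rfl
  rw [h, Set.ncard_coe_finset, Enc.card_finOf]

/-- The orbit of 36 points. -/
def m36 : ℕ := 0xf69ff0a09038bcf0081090000
/-- The orbit of 63 points. -/
def m63 : ℕ := 0x9600f5f6fc7430ff7ef6fffe
/-- A tree of the orbit of 36 points. -/
def e36 : List (ℕ × ℕ) := [(0, 16), (1, 16), (2, 16), (3, 16), (2, 41), (0, 42), (0, 43), (3, 43), (2, 40), (0, 56), (1, 56), (3, 64), (2, 75), (3, 75), (0, 81), (1, 81), (1, 80), (3, 80), (1, 24), (2, 24), (3, 24), (3, 51), (1, 88), (1, 85), (3, 85), (0, 94), (1, 94), (1, 73), (0, 84), (2, 57), (1, 48), (0, 31), (3, 87), (2, 47), (3, 19)]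
/-- A tree of the orbit of 63 points. -/
def e63 : List (ℕ × ℕ) := [(0, 1), (1, 1), (2, 1), (1, 2), (2, 2), (3, 2), (0, 3), (2, 3), (3, 3), (0, 4), (1, 4), (0, 5), (2, 5), (3, 5), (0, 6), (3, 6), (1, 7), (2, 7), (1, 8), (2, 8), (0, 9), (1, 9), (3, 9), (0, 10), (2, 10), (2, 11), (3, 12), (1, 13), (2, 13), (0, 14), (1, 14), (3, 14), (2, 15), (3, 17), (0, 18), (2, 20), (1, 21), (3, 21), (0, 23), (1, 25), (2, 25), (3, 25), (0, 27), (2, 28), (0, 29), (1, 29), (0, 32), (3, 33), (0, 34), (1, 34), (3, 34), (3, 35), (3, 36), (1, 39), (0, 52), (3, 52), (1, 53), (0, 58), (0, 60), (0, 63), (2, 70), (0, 78)]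

theorem inv36 : allBelow (fun x => allBelow (fun i => eqB (tb m36 (τP (2 * x + 1) i)) (tb m36 i)) 100) 4 = true := by decide +kernel
theorem inv63 : allBelow (fun x => allBelow (fun i => eqB (tb m63 (τP (2 * x + 1) i)) (tb m63 i)) 100) 4 = true := by decide +kernel
theorem tree36 : treeRun (fun k i => τP (2 * (k % 4) + 1) i) e36 (Nat.shiftLeft 1 16) = m36 := by decide +kernel
theorem tree63 : treeRun (fun k i => τP (2 * (k % 4) + 1) i) e63 (Nat.shiftLeft 1 1) = m63 := by decide +kernel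
theorem pop36 : Enc.popAux m36 100 = 36 := by decide +kernel
theorem pop63 : Enc.popAux m63 100 = 63 := by decide +kernel
theorem y36ok : tb m36 16 = true := by decide +kernel
theorem y63ok : tb m63 1 = true := by decide +kernel

theorem exists_coset (y : Fin 100) (Sm k : ℕ) (h : (Set.range fun h : HJ => ρJ h.1 y) = {z : Fin 100 | tb Sm z.val = true})
    (hp : Enc.popAux Sm 100 = k) : ∃ c : J2 ⧸ HJ, (MulAction.orbit ↥HJ c).ncard = k := by
  obtain ⟨u, hu⟩ := htr' y
  refine ⟨((eJP.symm u : J2) : J2 ⧸ HJ), ?_⟩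
  rw [orbit_ncard ρJ ⟨0, h0P⟩ HJ mem_HJ]
  have e : ρJ (eJP.symm u) ⟨0, h0P⟩ = y := by
    show ρP (eJP (eJP.symm u)) ⟨0, h0P⟩ = y
    rw [MulEquiv.apply_symm_apply, hu]
  rw [e, h, ncard_mask, hp]

end Cfsg.Agent.Lib.J2C
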