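import Cfsg.Agent.Lib.KnownSimple.J2B.Chk

/-!
# The reflections of the icosian Leech lattice: transitivity, and their number
-/

set_option autoImplicit false

noncomputable section

namespace Cfsg.Agent.Lib.J2C

open Cfsg Cfsg.Spor Quaternion Cfsg.Agent.Lib.KnownSimple.J2B

/-- A reflection is the reflection of a line. -/
theorem refl_eq_tp {f : Equiv.Perm icoLeech} (hf : IsIcoReflection f) : ∃ l, f = D.tp l := by
  obtain ⟨⟨r, hr⟩, hr4, h⟩ := hf
  obtain ⟨l, u, hu, h2⟩ := D.henum r hr hr4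
  refine ⟨l, Equiv.ext fun x => Subtype.ext ?_⟩
  show ((f x : icoLeech) : V) = qrefl (D.rv l) x
  rw [h x]
  show qrefl r x = _
  rw [h2, qrefl_unit hu]

/-- The reflection of a line is a reflection. -/
theorem tp_refl (l : Fin 315) : IsIcoReflection (D.tp l) :=
  ⟨⟨D.rv l, D.hL l⟩, D.hn l, fun _ => rfl⟩

theorem t_inj : Function.Injective D.t := L.t_inj

theorem tp_inj : Function.Injective D.tp := by
  intro a b h
  apply t_inj
  exact Subtype.ext h

/-- The lines are conjugate to the first. -/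
theorem conj_first (l : Fin 315) : ∃ g : twoJ2, g * D.t ⟨0, by norm_num⟩ * g⁻¹ = D.t l := by
  have key : ∀ n, ∀ a : Fin 315, a.val = n → ∃ g : twoJ2, g * D.t ⟨0, by norm_num⟩ * g⁻¹ = D.t a := by
    intro n
    induction n using Nat.strong_induction_on with
    | _ n ih =>
      intro a han
      by_cases h0 : a.val = 0
      · refine ⟨1, ?_⟩
        have : a = ⟨0, by norm_num⟩ := Fin.ext h0
        rw [this]
        group
      · obtain ⟨h1, h2⟩ := L.htree a h0
        obtain ⟨g, hg⟩ := ih _ (by omega) (L.par a) rfl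
        refine ⟨D.t (L.K (L.gk a)) * g, ?_⟩
        have h3 : D.t a = D.t (L.K (L.gk a)) * D.t (L.par a) * (D.t (L.K (L.gk a)))⁻¹ := by
          conv_lhs => rw [← h2]
          exact L.t_p _ _
        rw [h3, ← hg]
        group
  exact key _ l rfl

theorem conj_refl {f f' : Equiv.Perm icoLeech} (hf : IsIcoReflection f) (hf' : IsIcoReflection f') :
    ∃ g ∈ twoJ2, g * f * g⁻¹ = f' := by
  obtain ⟨l, rfl⟩ := refl_eq_tp hf
  obtain ⟨l', rfl⟩ := refl_eq_tp hf'
  obtain ⟨g, hg⟩ := conj_first l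
  obtain ⟨g', hg'⟩ := conj_first l'
  refine ⟨(g' * g⁻¹ : twoJ2).1, (g' * g⁻¹ : twoJ2).2, ?_⟩
  have h : (g' * g⁻¹) * D.t l * (g' * g⁻¹)⁻¹ = D.t l' := by
    rw [← hg, ← hg']
    group
  exact congrArg Subtype.val h

/-- There are 315 reflections. -/
theorem ncard_refl : {f : Equiv.Perm icoLeech | IsIcoReflection f}.ncard = 315 := by
  have h : {f : Equiv.Perm icoLeech | IsIcoReflection f} = Set.range D.tp := by
    ext f
    constructor
    · intro hf
      obtain ⟨l, h⟩ := refl_eq_tp hf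
      exact ⟨l, h.symm⟩
    · rintro ⟨l, rfl⟩
      exact tp_refl l
  rw [h, ← Set.image_univ, Set.ncard_image_of_injective _ tp_inj, Set.ncard_univ]
  simp

end Cfsg.Agent.Lib.J2C

noncomputable section

namespace Cfsg.Agent.Lib.J2C

open Cfsg Cfsg.Spor Quaternion Cfsg.Agent.Lib.KnownSimple.J2B Cfsg.Agent.Lib.Compute

set_option maxHeartbeats 0 in
set_option maxRecDepth 100000 in
theorem okU_all : allBelow (fun u => inI (unitQ u)) 120 = true := by decide +kernel

set_option maxHeartbeats 0 in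
set_option maxRecDepth 100000 in
theorem okD_all : allBelow (fun u => allBelow (fun v => Nat.beq u v || !decide (unitQ u = unitQ v)) 120) 120 = true := by
  decide +kernel

theorem unit_mem {u : ℕ} (hu : u < 120) : toH (unitQ u) ∈ icosians :=
  inI_sound ((allBelow_iff _ _).1 okU_all u hu)

theorem unitQ_inj {u v : ℕ} (hu : u < 120) (hv : v < 120) (h : unitQ u = unitQ v) : u = v := by
  have h1 := (allBelow_iff _ _).1 ((allBelow_iff _ _).1 okD_all u hu) v hv
  simp only [Bool.or_eq_true, Bool.not_eq_true', decide_eq_false_iff_not] at h1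
  rcases h1 with h1 | h1
  · exact Nat.eq_of_beq_eq_true h1
  · exact absurd h h1

theorem qip_lsm_right (a : ℍ[ℝ]) (x r : V) : qip x (lsm a r) = qip x r * star a := by
  rw [← qip_star (lsm a r) x, qip_lsm, star_mul, qip_star]

theorem self_star {u : ℍ[ℝ]} (hu : star u * u = 1) : u * star u = 1 := by
  rw [Quaternion.self_mul_star, ← Quaternion.star_mul_self, hu]

theorem qip_lsm_self {u : ℍ[ℝ]} (hu : star u * u = 1) {r : V} (hr : qip r r = 4) : qip (lsm u r) (lsm u r) = 4 := by
  rw [qip_lsm, qip_lsm_right, hr, four_eq, smul_mul_assoc, one_mul, mul_smul_comm, self_star hu]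

/-- The parametrisation of the minimal vectors. -/
def Φ (p : Fin 120 × Fin 315) : V := lsm (toH (unitQ p.1.val)) (D.rv p.2)

theorem Φ_inj : Function.Injective Φ := by
  rintro ⟨u, l⟩ ⟨u', l'⟩ h
  have hu := unit_star u.2
  have hu' := unit_star u'.2
  have e : D.t l = D.t l' := by
    apply LineData.t_ext
    intro x
    show qrefl (D.rv l) x = qrefl (D.rv l') x
    rw [← qrefl_unit hu (D.rv l), ← qrefl_unit hu' (D.rv l')]
    have h' : lsm (toH (unitQ u.val)) (D.rv l) = lsm (toH (unitQ u'.val)) (D.rv l') := h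
    rw [h']
  have e2 : l = l' := t_inj e
  subst e2
  have h' : lsm (toH (unitQ u.val)) (D.rv l) = lsm (toH (unitQ u'.val)) (D.rv l) := h
  have hne : ∃ t, D.rv l t ≠ 0 := by
    by_contra hall
    push Not at hall
    have h4 := D.hn l
    unfold qip at h4
    simp only [hall, star_zero, mul_zero, Finset.sum_const_zero] at h4
    rw [four_eq] at h4
    have h5 := congrArg (fun q : ℍ[ℝ] => q.re) h4
    norm_num at h5
  obtain ⟨t, ht⟩ := hne
  have e3 := congrFun h' t
  simp only [lsm] at e3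
  have e4 := mul_right_cancel₀ ht e3
  have e5 := toH_inj e4
  have e6 := unitQ_inj u.2 u'.2 e5
  rw [Prod.mk.injEq]
  exact ⟨Fin.ext e6, rfl⟩

theorem ncard_min : {r : Fin 3 → ℍ[ℝ] | r ∈ icoLeech ∧ qip r r = 4}.ncard = 37800 := by
  have h : {r : Fin 3 → ℍ[ℝ] | r ∈ icoLeech ∧ qip r r = 4} = Set.range Φ := by
    ext r
    constructor
    · rintro ⟨hr, hn⟩
      obtain ⟨u, l, hu, hl, e⟩ := enum_main hr hn
      exact ⟨(⟨u, hu⟩, ⟨l, hl⟩), e.symm⟩
    · rintro ⟨⟨u, l⟩, rfl⟩
      exact ⟨lam_lsm (unit_mem u.2) (D.hL l), qip_lsm_self (unit_star u.2) (D.hn l)⟩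
  rw [h, ← Set.image_univ, Set.ncard_image_of_injective _ Φ_inj, Set.ncard_univ]
  simp

end Cfsg.Agent.Lib.J2C
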